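/-
BG Appendix B: the Puig subgroup, and Theorem 6.2.
-/
import Cfsg.Agent.BG2.Stable
import Cfsg.Agent.Eqns.Def_OddOrderLocal

set_option autoImplicit false

open Subgroup Cfsg
open scoped commutatorElement

namespace CF.BG2

section General

variable {G : Type*} [Group G] {G' : Type*} [Group G']

theorem puigSeq_zero : puigSeq G 0 = ⊥ := rfl

theorem puigSeq_succ (n : ℕ) : puigSeq G (n + 1) = puigStep (puigSeq G n) := rfl

theorem le_puigStep {X A : Subgroup G} (hA : IsMulCommutative A) (h : X ≤ normalizer (A : Set G)) :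
    A ≤ puigStep X := le_sSup ⟨hA, h⟩

theorem puigStep_le {X L : Subgroup G}
    (h : ∀ A : Subgroup G, IsMulCommutative A → X ≤ normalizer (A : Set G) → A ≤ L) :
    puigStep X ≤ L := sSup_le fun A hA => h A hA.1 hA.2

theorem puigStep_anti {X Y : Subgroup G} (h : X ≤ Y) : puigStep Y ≤ puigStep X :=
  puigStep_le fun _ hA hY => le_puigStep hA (h.trans hY)

theorem puigSeq_one : puigSeq G 1 = ⊤ := by
  rw [eq_top_iff]
  intro x _
  exact le_puigStep (X := ⊥) (A := zpowers x) inferInstance bot_le (mem_zpowers x)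

theorem puigSeq_even_le (n : ℕ) : puigSeq G (2 * n) ≤ puigSeq G (2 * n + 2) := by
  induction n with
  | zero => exact bot_le
  | succ n ih => exact puigStep_anti (puigStep_anti ih)

theorem puigSeq_odd_le (n : ℕ) : puigSeq G (2 * n + 3) ≤ puigSeq G (2 * n + 1) :=
  puigStep_anti (puigSeq_even_le n)

theorem puigSeq_even_mono : Monotone fun n => puigSeq G (2 * n) :=
  monotone_nat_of_le_succ puigSeq_even_le

theorem puigSeq_odd_anti : Antitone fun n => puigSeq G (2 * n + 1) :=
  antitone_nat_of_succ_le puigSeq_odd_le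

theorem puigSeq_even_le_odd' (n : ℕ) : puigSeq G (2 * n) ≤ puigSeq G (2 * n + 1) := by
  induction n with
  | zero => exact bot_le
  | succ n ih => exact puigStep_anti (puigStep_anti ih)

theorem puigSeq_even_le_odd (n m : ℕ) : puigSeq G (2 * n) ≤ puigSeq G (2 * m + 1) :=
  (puigSeq_even_mono (le_max_left n m)).trans
    ((puigSeq_even_le_odd' _).trans (puigSeq_odd_anti (le_max_right n m)))

theorem puigLower_le_puigSubgroup : puigLower G ≤ puigSubgroup G :=
  iSup_le fun n => le_iInf fun m => puigSeq_even_le_odd n m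

theorem exists_puigSeq_eq [Finite G] : ∃ k : ℕ, ∀ n : ℕ, k ≤ n →
    puigSeq G (2 * n) = puigLower G ∧ puigSeq G (2 * n + 1) = puigSubgroup G := by
  obtain ⟨k, hk⟩ := WellFoundedGT.monotone_chain_condition
    (⟨fun n => puigSeq G (2 * n), puigSeq_even_mono⟩ : ℕ →o Subgroup G)
  have hk' : ∀ n, k ≤ n → puigSeq G (2 * k) = puigSeq G (2 * n) := hk
  have h1 : puigSeq G (2 * k) = puigLower G := by
    apply le_antisymm (le_iSup (fun n => puigSeq G (2 * n)) k)
    refine iSup_le fun n => ?_
    rw [hk' (max k n) (le_max_left _ _)]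
    exact puigSeq_even_mono (le_max_right _ _)
  have h2 : ∀ n, k ≤ n → puigSeq G (2 * k + 1) = puigSeq G (2 * n + 1) := fun n hn => by
    rw [puigSeq_succ, puigSeq_succ, hk' n hn]
  have h3 : puigSeq G (2 * k + 1) = puigSubgroup G := by
    apply le_antisymm _ (iInf_le (fun n => puigSeq G (2 * n + 1)) k)
    refine le_iInf fun n => ?_
    rw [h2 (max k n) (le_max_left _ _)]
    exact puigSeq_odd_anti (le_max_right _ _)
  exact ⟨k, fun n hn => ⟨(hk' n hn).symm.trans h1, (h2 n hn).symm.trans h3⟩⟩

theorem puigStep_puigLower [Finite G] : puigStep (puigLower G) = puigSubgroup G := by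
  obtain ⟨k, hk⟩ := exists_puigSeq_eq (G := G)
  rw [← (hk k le_rfl).1, ← (hk k le_rfl).2, puigSeq_succ]

theorem puigStep_puigSubgroup [Finite G] : puigStep (puigSubgroup G) = puigLower G := by
  obtain ⟨k, hk⟩ := exists_puigSeq_eq (G := G)
  rw [← (hk k le_rfl).2, ← (hk (k + 1) (Nat.le_succ k)).1]
  rfl

theorem le_puigSeq_of_normal {A : Subgroup G} [A.Normal] (hA : IsMulCommutative A) {i : ℕ}
    (hi : 0 < i) : A ≤ puigSeq G i := by
  obtain ⟨j, rfl⟩ : ∃ j, i = j + 1 := ⟨i - 1, by omega⟩
  apply le_puigStep hA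
  rw [normalizer_eq_top]; exact le_top

theorem le_puigLower_of_normal {A : Subgroup G} [A.Normal] (hA : IsMulCommutative A) :
    A ≤ puigLower G :=
  (le_puigSeq_of_normal hA (i := 2 * 1) (by norm_num)).trans
    (le_iSup (fun n => puigSeq G (2 * n)) 1)

theorem exists_self_centralizing_normal [Finite G] [Group.IsNilpotent G] :
    ∃ A : Subgroup G, A.Normal ∧ IsMulCommutative A ∧ centralizer (A : Set G) = A := by
  obtain ⟨A, hA, hmax⟩ := Set.Finite.exists_maximal
    (Set.toFinite {A : Subgroup G | A.Normal ∧ IsMulCommutative A})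
    ⟨⊥, inferInstance, inferInstance⟩
  have := hA.1
  have := hA.2
  exact ⟨A, hA.1, hA.2, Solv.centralizer_eq_self_of_maximal_abelian_normal A fun M h1 h2 h3 =>
    le_antisymm (hmax ⟨h1, h2⟩ h3) h3⟩

theorem centralizer_le_of_forall_abelian_normal_le [Finite G] [Group.IsNilpotent G]
    {L : Subgroup G} (h : ∀ A : Subgroup G, A.Normal → IsMulCommutative A → A ≤ L) :
    centralizer (L : Set G) ≤ L := by
  obtain ⟨A, h1, h2, h3⟩ := exists_self_centralizing_normal (G := G)
  exact (centralizer_le (h A h1 h2)).trans (h3.le.trans (h A h1 h2))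

theorem centralizer_puigSeq_le [Finite G] [Group.IsNilpotent G] {i : ℕ} (hi : 0 < i) :
    centralizer (puigSeq G i : Set G) ≤ puigSeq G i :=
  centralizer_le_of_forall_abelian_normal_le fun _ _ h => le_puigSeq_of_normal h hi

theorem centralizer_puigLower_le [Finite G] [Group.IsNilpotent G] :
    centralizer (puigLower G : Set G) ≤ puigLower G :=
  centralizer_le_of_forall_abelian_normal_le fun _ _ h => le_puigLower_of_normal h

theorem centralizer_puigSubgroup_le [Finite G] [Group.IsNilpotent G] :
    centralizer (puigSubgroup G : Set G) ≤ puigSubgroup G :=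
  centralizer_le_of_forall_abelian_normal_le fun _ _ h =>
    (le_puigLower_of_normal h).trans puigLower_le_puigSubgroup

theorem map_puigStep_le (e : G ≃* G') (X : Subgroup G) :
    (puigStep X).map (e : G →* G') ≤ puigStep (X.map (e : G →* G')) := by
  rw [map_le_iff_le_comap]
  refine puigStep_le fun A hA hX => ?_
  rw [← map_le_iff_le_comap]
  exact le_puigStep inferInstance ((map_mono hX).trans (le_normalizer_map _))

theorem map_puigStep (e : G ≃* G') (X : Subgroup G) :
    (puigStep X).map (e : G →* G') = puigStep (X.map (e : G →* G')) := by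
  apply le_antisymm (map_puigStep_le e X)
  have h := map_puigStep_le e.symm (X.map (e : G →* G'))
  rw [map_map, MulEquiv.coe_monoidHom_symm_comp_coe_monoidHom, map_id] at h
  have h2 := map_mono (f := (e : G →* G')) h
  rwa [map_map, MulEquiv.coe_monoidHom_comp_coe_monoidHom_symm, map_id] at h2

theorem map_puigSeq (e : G ≃* G') (n : ℕ) :
    (puigSeq G n).map (e : G →* G') = puigSeq G' n := by
  induction n with
  | zero => exact map_bot _
  | succ n ih => rw [puigSeq_succ, puigSeq_succ, map_puigStep, ih]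

theorem map_puigLower (e : G ≃* G') : (puigLower G).map (e : G →* G') = puigLower G' := by
  simp only [puigLower, Subgroup.map_iSup, map_puigSeq]

theorem map_puigSubgroup (e : G ≃* G') :
    (puigSubgroup G).map (e : G →* G') = puigSubgroup G' := by
  simp only [puigSubgroup, Subgroup.map_iInf (e : G →* G') e.injective, map_puigSeq]

instance puigSeq_characteristic (n : ℕ) : (puigSeq G n).Characteristic :=
  characteristic_iff_map_eq.2 fun e => map_puigSeq e n

instance puigLower_characteristic : (puigLower G).Characteristic :=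
  characteristic_iff_map_eq.2 fun e => map_puigLower e

instance puigSubgroup_characteristic : (puigSubgroup G).Characteristic :=
  characteristic_iff_map_eq.2 fun e => map_puigSubgroup e

/-! ### Ambient versions -/

/-- The join of the abelian subgroups of `H` normalized by `X`. -/
def stepIn (H X : Subgroup G) : Subgroup G :=
  sSup {A : Subgroup G | A ≤ H ∧ IsMulCommutative A ∧ X ≤ normalizer (A : Set G)}

/-- `L_n(H)` inside `G`. -/
abbrev seqIn (H : Subgroup G) (n : ℕ) : Subgroup G := (puigSeq H n).map H.subtype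

/-- `L(H)` inside `G`. -/
abbrev puigIn (H : Subgroup G) : Subgroup G := (puigSubgroup H).map H.subtype

/-- `L_*(H)` inside `G`. -/
abbrev lowerIn (H : Subgroup G) : Subgroup G := (puigLower H).map H.subtype

theorem le_stepIn {H X A : Subgroup G} (hH : A ≤ H) (hA : IsMulCommutative A)
    (h : X ≤ normalizer (A : Set G)) : A ≤ stepIn H X := le_sSup ⟨hH, hA, h⟩

theorem stepIn_le {H X L : Subgroup G}
    (h : ∀ A : Subgroup G, A ≤ H → IsMulCommutative A → X ≤ normalizer (A : Set G) → A ≤ L) :
    stepIn H X ≤ L := sSup_le fun A hA => h A hA.1 hA.2.1 hA.2.2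

theorem stepIn_le_self (H X : Subgroup G) : stepIn H X ≤ H := stepIn_le fun _ h _ _ => h

theorem stepIn_mono {H K X Y : Subgroup G} (h : H ≤ K) (h' : Y ≤ X) : stepIn H X ≤ stepIn K Y :=
  stepIn_le fun _ h1 h2 h3 => le_stepIn (h1.trans h) h2 (h'.trans h3)

theorem stepIn_eq_of_le {H K X : Subgroup G} (h : H ≤ K) (h' : stepIn K X ≤ H) :
    stepIn H X = stepIn K X :=
  le_antisymm (stepIn_mono h le_rfl)
    (stepIn_le fun _ h1 h2 h3 => le_stepIn ((le_stepIn h1 h2 h3).trans h') h2 h3)

theorem map_puigStep_subtype {H : Subgroup G} (X : Subgroup H) :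
    (puigStep X).map H.subtype = stepIn H (X.map H.subtype) := by
  apply le_antisymm
  · rw [map_le_iff_le_comap]
    refine puigStep_le fun A hA hX => ?_
    rw [← map_le_iff_le_comap]
    exact le_stepIn (map_subtype_le _) inferInstance ((map_mono hX).trans (le_normalizer_map _))
  · refine stepIn_le fun A hAH hA hX => ?_
    rw [← map_subgroupOf_eq_of_le hAH]
    apply map_mono
    apply le_puigStep inferInstance
    rw [← subgroupOf_normalizer_eq hAH]
    rwa [map_le_iff_le_comap] at hX

theorem seqIn_succ (H : Subgroup G) (n : ℕ) : seqIn H (n + 1) = stepIn H (seqIn H n) :=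
  map_puigStep_subtype _

theorem seqIn_zero (H : Subgroup G) : seqIn H 0 = ⊥ := map_bot _

theorem stepIn_lowerIn [Finite G] (H : Subgroup G) : stepIn H (lowerIn H) = puigIn H := by
  rw [← map_puigStep_subtype, puigStep_puigLower]

theorem stepIn_puigIn [Finite G] (H : Subgroup G) : stepIn H (puigIn H) = lowerIn H := by
  rw [← map_puigStep_subtype, puigStep_puigSubgroup]

theorem lowerIn_le_puigIn (H : Subgroup G) : lowerIn H ≤ puigIn H :=
  map_mono puigLower_le_puigSubgroup

theorem puigIn_le (H : Subgroup G) : puigIn H ≤ H := map_subtype_le _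

theorem exists_seqIn_eq [Finite G] (H : Subgroup G) : ∃ k : ℕ, ∀ n : ℕ, k ≤ n →
    seqIn H (2 * n) = lowerIn H ∧ seqIn H (2 * n + 1) = puigIn H := by
  obtain ⟨k, hk⟩ := exists_puigSeq_eq (G := H)
  exact ⟨k, fun n hn => ⟨congrArg _ (hk n hn).1, congrArg _ (hk n hn).2⟩⟩

theorem lowerIn_le_of_forall [Finite G] {H X : Subgroup G} (h : ∀ n, seqIn H (2 * n) ≤ X) :
    lowerIn H ≤ X := by
  obtain ⟨k, hk⟩ := exists_seqIn_eq H
  rw [← (hk k le_rfl).1]; exact h k

theorem le_lowerIn_of_normal {H A : Subgroup G} (hAH : A ≤ H) (hA : IsMulCommutative A)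
    (hn : H ≤ normalizer (A : Set G)) : A ≤ lowerIn H := by
  have : (A.subgroupOf H).Normal := (normal_subgroupOf_iff_le_normalizer hAH).2 hn
  rw [← map_subgroupOf_eq_of_le hAH]
  exact map_mono (le_puigLower_of_normal inferInstance)

theorem inf_centralizer_map_le {H : Subgroup G} {L : Subgroup H}
    (h : centralizer (L : Set H) ≤ L) :
    H ⊓ centralizer ((L.map H.subtype : Subgroup G) : Set G) ≤ L.map H.subtype := by
  rintro x ⟨hxH, hx⟩
  refine ⟨⟨x, hxH⟩, h ?_, rfl⟩
  intro y hy
  exact Subtype.ext (hx y ⟨y, hy, rfl⟩)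

/-- BG Lemma B.2. -/
theorem puigIn_eq_of_le [Finite G] {H K : Subgroup G} (hHK : H ≤ K) (h : puigIn K ≤ H) :
    puigIn H = puigIn K := by
  have e1 : stepIn H (lowerIn K) = puigIn K := by
    rw [stepIn_eq_of_le hHK (by rwa [stepIn_lowerIn]), stepIn_lowerIn]
  have e2 : stepIn H (puigIn K) = lowerIn K := by
    rw [stepIn_eq_of_le hHK (by rw [stepIn_puigIn]; exact (lowerIn_le_puigIn K).trans h),
      stepIn_puigIn]
  have h1 : lowerIn H ≤ lowerIn K := by
    refine lowerIn_le_of_forall fun n => ?_
    induction n with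
    | zero => rw [mul_zero, seqIn_zero]; exact bot_le
    | succ n ih =>
      rw [show 2 * (n + 1) = 2 * n + 1 + 1 by ring, seqIn_succ, seqIn_succ, ← e2, ← e1]
      exact stepIn_mono le_rfl (stepIn_mono le_rfl ih)
  have h2 : puigIn K ≤ puigIn H := by
    rw [← e1, ← stepIn_lowerIn]; exact stepIn_mono le_rfl h1
  have e3 : stepIn K (puigIn H) = lowerIn H := by
    rw [← stepIn_puigIn, stepIn_eq_of_le hHK]
    refine (stepIn_mono le_rfl h2).trans ?_
    rw [stepIn_puigIn]; exact (lowerIn_le_puigIn K).trans h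
  have h3 : lowerIn K ≤ lowerIn H := by
    refine lowerIn_le_of_forall fun n => ?_
    induction n with
    | zero => rw [mul_zero, seqIn_zero]; exact bot_le
    | succ n ih =>
      rw [show 2 * (n + 1) = 2 * n + 1 + 1 by ring, seqIn_succ, seqIn_succ, ← e3,
        ← stepIn_lowerIn]
      exact stepIn_mono le_rfl (stepIn_mono hHK ih)
  rw [← e1, ← stepIn_lowerIn, le_antisymm h1 h3]

theorem map_puigIn (f : G →* G') {H : Subgroup G} (h : f.ker ⊓ H = ⊥) :
    (puigIn H).map f = puigIn (H.map f) := by
  have hinj : Function.Injective (f.subgroupMap H) := by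
    rw [injective_iff_map_eq_one]
    intro a ha
    have h1 : (a : G) ∈ f.ker ⊓ H := ⟨congrArg Subtype.val ha, a.2⟩
    rw [h] at h1
    exact Subtype.ext h1
  let e : H ≃* H.map f := MulEquiv.ofBijective (f.subgroupMap H)
    ⟨hinj, f.subgroupMap_surjective H⟩
  rw [puigIn, puigIn, ← map_puigSubgroup e, map_map, map_map]
  rfl

theorem map_map_center_puig (H : Subgroup G) :
    ((center (puigSubgroup H)).map (puigSubgroup H).subtype).map H.subtype =
      puigIn H ⊓ centralizer (puigIn H : Set G) := by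
  rw [Solv.center_map_subtype]
  ext x
  constructor
  · rintro ⟨y, ⟨hy1, hy2⟩, rfl⟩
    refine ⟨⟨y, hy1, rfl⟩, ?_⟩
    rintro _ ⟨z, hz, rfl⟩
    exact congrArg Subtype.val (hy2 z hz)
  · rintro ⟨⟨y, hy, rfl⟩, hx⟩
    exact ⟨y, ⟨hy, fun z hz => Subtype.ext (hx z ⟨z, hz, rfl⟩)⟩, rfl⟩

end General

section Odd

variable {G : Type*} [Group G] [Finite G] {p : ℕ} [hp : Fact p.Prime] [Group.IsSolvable G]

/-- BG Lemma B.3. -/
theorem puig_sylow_pCore (hodd : Odd (Nat.card G)) (hO : pPrimeCore p G = ⊥) (S : Sylow p G) :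
    lowerIn (S : Subgroup G) ≤ lowerIn (pCore p G) ∧
      puigIn (pCore p G) ≤ puigIn (S : Subgroup G) := by
  have hTS : pCore p G ≤ S := Solv.pCore_le_sylow S
  have hT : Group.IsNilpotent (pCore p G) := (Solv.pCore_isPGroup (p := p) (G := G)).isNilpotent
  have key : stepIn S (puigIn (pCore p G)) ≤ pCore p G := by
    refine stepIn_le fun A hAS hA hn => ?_
    exact le_pCore_of_abelian hodd (Solv.pCore_isPGroup.to_le (puigIn_le _)) hA
      (S.isPGroup'.to_le hAS) hn hO (inf_centralizer_map_le centralizer_puigSubgroup_le)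
  have h1 : lowerIn (S : Subgroup G) ≤ lowerIn (pCore p G) := by
    refine lowerIn_le_of_forall fun n => ?_
    induction n with
    | zero => rw [mul_zero, seqIn_zero]; exact bot_le
    | succ n ih =>
      rw [show 2 * (n + 1) = 2 * n + 1 + 1 by ring, seqIn_succ, seqIn_succ, ← stepIn_puigIn,
        stepIn_eq_of_le hTS key, ← stepIn_lowerIn]
      exact stepIn_mono le_rfl (stepIn_mono hTS ih)
  refine ⟨h1, ?_⟩
  rw [← stepIn_lowerIn, ← stepIn_lowerIn]
  exact stepIn_mono hTS h1

/-- BG Theorem B.4(b). -/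
theorem normal_center_puig (hodd : Odd (Nat.card G)) (hO : pPrimeCore p G = ⊥) (S : Sylow p G) :
    (puigIn (S : Subgroup G) ⊓ centralizer (puigIn (S : Subgroup G) : Set G)).Normal := by
  obtain ⟨h1, h2⟩ := puig_sylow_pCore hodd hO S
  have hS : Group.IsNilpotent S := S.isPGroup'.isNilpotent
  set L := puigIn (S : Subgroup G) with hL
  set Y := puigIn (pCore p G) ⊓ centralizer (puigIn (pCore p G) : Set G) with hY
  have hYn : Y.Normal := inferInstance
  have hZY : L ⊓ centralizer (L : Set G) ≤ Y := by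
    refine le_inf ?_ (inf_le_right.trans (centralizer_le h2))
    refine le_trans ?_ (h1.trans (lowerIn_le_puigIn _))
    refine le_trans ?_ (inf_centralizer_map_le centralizer_puigLower_le)
    exact inf_le_inf (puigIn_le _) (centralizer_le (lowerIn_le_puigIn _))
  have hYc : IsMulCommutative Y := by
    rw [← le_centralizer_iff_isMulCommutative]
    exact inf_le_right.trans (centralizer_le inf_le_left)
  have hYS : Y ≤ S := inf_le_left.trans (h2.trans (puigIn_le _))
  have hYp : IsPGroup p Y := S.isPGroup'.to_le hYS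
  set C := (pCore p (G ⧸ centralizer (Y : Set G))).comap
    (QuotientGroup.mk' (centralizer (Y : Set G))) with hC
  have hYL : Y ≤ lowerIn (S : Subgroup G) :=
    le_lowerIn_of_normal hYS hYc (by rw [normalizer_eq_top]; exact le_top)
  have hLC : L ≤ C := by
    rw [hL, ← stepIn_lowerIn]
    refine stepIn_le fun A hAS hA hn => ?_
    rw [hC, ← map_le_iff_le_comap]
    exact map_le_pCore_of_abelian hodd hYp hA (S.isPGroup'.to_le hAS) (hYL.trans hn)
  have hLeq : puigIn ((S : Subgroup G) ⊓ C) = L :=
    puigIn_eq_of_le inf_le_left (le_inf (puigIn_le _) hLC)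
  have hN : normalizer (((S : Subgroup G) ⊓ C : Subgroup G) : Set G) ≤
      normalizer ((L ⊓ centralizer (L : Set G) : Subgroup G) : Set G) := by
    have h3 : normalizer (((S : Subgroup G) ⊓ C : Subgroup G) : Set G) ≤ normalizer (L : Set G) := by
      rw [← hLeq]; exact Solv.normalizer_le_normalizer_map_subtype _
    exact PLocal.le_normalizer_inf h3 (PLocal.le_normalizer_centralizer h3)
  have hCle : C ≤ ((S : Subgroup G) ⊓ C) ⊔ centralizer (Y : Set G) := by
    have h3 : centralizer (Y : Set G) ≤ C := Solv.le_comap_mk' _ _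
    rw [← Solv.sup_inf_assoc' _ h3]
    refine le_inf ?_ le_rfl
    rw [← Solv.comap_map_mk']
    exact comap_mono (pCore_le_map_sylow (QuotientGroup.mk'_surjective _) S)
  rw [← normalizer_eq_top_iff, eq_top_iff, ← Solv.normalizer_inf_sup_eq_top S C]
  refine sup_le hN (hCle.trans (sup_le (le_normalizer.trans hN) ?_))
  exact (centralizer_le hZY).trans (centralizer_le_normalizer _)

/-- BG Theorem B.4(a). -/
theorem pPrimeCore_sup_normalizer_center_puig (hodd : Odd (Nat.card G)) (S : Sylow p G) :
    pPrimeCore p G ⊔ normalizer ((puigIn (S : Subgroup G) ⊓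
      centralizer (puigIn (S : Subgroup G) : Set G) : Subgroup G) : Set G) = ⊤ := by
  set f := QuotientGroup.mk' (pPrimeCore p G) with hf
  have hfs : Function.Surjective f := QuotientGroup.mk'_surjective _
  have h1 := normal_center_puig (odd_card_quotient hodd (pPrimeCore p G))
    Solv.pPrimeCore_quotient_pPrimeCore (S.mapSurjective hfs)
  have hk : f.ker ⊓ (S : Subgroup G) = ⊥ := by
    rw [hf, QuotientGroup.ker_mk', inf_comm]
    exact Solv.inf_eq_bot_of_isPGroup_of_coprime S.isPGroup' Solv.pPrimeCore_coprime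
  have hLp : IsPGroup p (puigIn (S : Subgroup G)) := S.isPGroup'.to_le (puigIn_le _)
  have hcop : ∀ {X : Subgroup G}, IsPGroup p X →
      (Nat.card X).Coprime (Nat.card (pPrimeCore p G)) := fun h =>
    Solv.coprime_card_of_isPGroup h Solv.pPrimeCore_coprime
  have h2 : (puigIn (S : Subgroup G) ⊓ centralizer (puigIn (S : Subgroup G) : Set G)).map f =
      puigIn ((S : Subgroup G).map f) ⊓ centralizer (puigIn ((S : Subgroup G).map f) : Set _) := by
    rw [← map_puigIn f hk]
    apply Coprime.map_inf_centralizer _ _ _ le_normalizer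
    · have : puigIn (S : Subgroup G) ⊓ f.ker = ⊥ := by
        rw [eq_bot_iff, ← hk]
        exact le_inf inf_le_right (inf_le_left.trans (puigIn_le _))
      rw [this]; simp
    · exact Or.inl inferInstance
  have h3 := Coprime.map_mk'_normalizer (pPrimeCore p G)
    (puigIn (S : Subgroup G) ⊓ centralizer (puigIn (S : Subgroup G) : Set G))
    (hcop (hLp.to_le inf_le_left)) (Or.inl inferInstance)
  rw [← hf, h2] at h3
  have h4 : normalizer ((puigIn ((S : Subgroup G).map f) ⊓
      centralizer (puigIn ((S : Subgroup G).map f) : Set _) : Subgroup (G ⧸ pPrimeCore p G)) :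
        Set (G ⧸ pPrimeCore p G)) = ⊤ :=
    normalizer_eq_top_iff.2 h1
  rw [h4] at h3
  rw [sup_comm, ← Solv.comap_map_mk', ← hf, h3, comap_top]

/-- BG Theorem 6.2: `Z(L(S)) O_{p'}(G)` is normal in `G`. -/
theorem normal_center_puig_sup (hodd : Odd (Nat.card G)) (S : Sylow p G) :
    ((puigIn (S : Subgroup G) ⊓ centralizer (puigIn (S : Subgroup G) : Set G)) ⊔
      pPrimeCore p G).Normal := by
  rw [← normalizer_eq_top_iff, eq_top_iff, ← pPrimeCore_sup_normalizer_center_puig hodd S]
  refine sup_le (le_sup_right.trans le_normalizer) (PLocal.le_normalizer_sup le_rfl ?_)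
  rw [normalizer_eq_top (pPrimeCore p G)]; exact le_top

end Odd

end CF.BG2
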